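import Cfsg.Agent.GLChar.Flag

/-! The Jacobi-Trudi identity (`jt`) and the unipotent characters of `GL n F`: orthonormality (`inner_uni`),
degree (`deg_uni`), irreducibility (`irr_uni`). -/

set_option autoImplicit false

namespace Cfsg.Agent.GLChar

open Matrix Finset Equiv MvPolynomial Cfsg.Agent.Char
open scoped MatrixGroups

variable {n : ℕ}

/-- complete symmetric polynomials -/
noncomputable def hh (n m : ℕ) : MvPolynomial (Fin n) ℤ := PowerSeries.coeff m (∏ i, PowerSeries.mk fun k => X i ^ k)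

theorem prod_X_pow (f : Fin n → ℕ) : ∏ k, (X k : MvPolynomial (Fin n) ℤ) ^ f k = monomial (Finsupp.equivFunOnFinite.symm f) 1 := by
  rw [monomial_eq, C_1, one_mul, Finsupp.prod_fintype _ _ fun _ => pow_zero _]; rfl

theorem coeff_prod_hh (α β : Fin n → ℕ) :
    coeff (Finsupp.equivFunOnFinite.symm β) (∏ k, hh n (α k)) = Nat.card (Tab α β) := by
  simp only [hh, PowerSeries.coeff_prod, PowerSeries.coeff_mk, prod_X_pow, Finsupp.equivFunOnFinite_symm_coe,
    prod_univ_sum, ← monomial_sum_one, coeff_sum, coeff_monomial, sum_boole, Nat.cast_inj]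
  rw [← Nat.card_eq_finsetCard]
  exact Nat.card_congr (((Equiv.piCongrRight fun _ => Finsupp.equivFunOnFinite).subtypeEquiv fun N => by
    simp [Finsupp.ext_iff, Finsupp.finsetSum_apply]))

theorem exists_X_pow (k : Fin n) : ∃ c : Fin n → MvPolynomial (Fin n) ℤ, ∀ m,
    X k ^ m = ∑ j : Fin n, (if j.val ≤ m then hh n (m - j) else 0) * c j := by
  let P : Polynomial (MvPolynomial (Fin n) ℤ) := ∏ i ∈ univ.erase k, (1 - Polynomial.C (X i) * Polynomial.X)
  have d : P.natDegree < n := (Polynomial.natDegree_prod_le _ _).trans_lt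
    ((sum_le_card_nsmul _ _ 1 fun i _ => by compute_degree).trans_lt (by simpa using k.pos))
  have e : (P : PowerSeries (MvPolynomial (Fin n) ℤ)) * ∏ i, PowerSeries.mk (fun j => (X i : MvPolynomial (Fin n) ℤ) ^ j) =
      PowerSeries.mk fun j => X k ^ j := by
    rw [← mul_prod_erase _ _ (mem_univ k), mul_left_comm, ← Polynomial.coeToPowerSeries.ringHom_apply, map_prod,
      ← prod_mul_distrib, prod_eq_one fun i _ => ?_, mul_one]
    ext1 m
    cases m <;> simp [sub_mul, mul_assoc, PowerSeries.coeff_succ_X_mul, pow_succ', PowerSeries.coeff_one]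
  refine ⟨fun j => P.coeff j, fun m => ?_⟩
  rw [← PowerSeries.coeff_mk m fun j => (X k : MvPolynomial (Fin n) ℤ) ^ j, ← e, PowerSeries.coeff_mul,
    Nat.sum_antidiagonal_eq_sum_range_succ_mk, Fin.sum_univ_eq_sum_range fun j => (if j ≤ m then hh n (m - j) else 0) * P.coeff j]
  simp only [ite_mul, zero_mul, ← sum_filter, Polynomial.coeff_coe, mul_comm (P.coeff _)]
  exact (sum_subset (fun j => by simp) fun j h1 h2 => by
    rw [Polynomial.coeff_eq_zero_of_natDegree_lt (by simp at h1 h2; omega), mul_zero]).symm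

theorem jt0 (l : Fin n → ℕ) : (of fun i k => (X k : MvPolynomial (Fin n) ℤ) ^ l i).det =
    (of fun i (j : Fin n) => if j.val ≤ l i then hh n (l i - j) else 0).det * (of fun (i : Fin n) k => X k ^ i.val).det := by
  choose c hc using exists_X_pow (n := n)
  have e : ∀ l : Fin n → ℕ, (of fun i k => (X k : MvPolynomial (Fin n) ℤ) ^ l i).det =
      (of fun i (j : Fin n) => if j.val ≤ l i then hh n (l i - j) else 0).det * (of c)ᵀ.det := fun l => by
    rw [← det_mul]; congr 1; ext1 i k; exact hc k _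
  rw [e, e fun i => i, det_of_isLowerTriangular (M := of fun i j : Fin n => if j.val ≤ i then _ else 0) fun i j h =>
    if_neg (not_le.2 h)]
  simp [hh]

theorem jt {l m : Fin n → ℕ} (hl : StrictMono l) (hm : StrictMono m) :
    ∑ κ : Perm (Fin n), ∑ τ : Perm (Fin n), (if ∀ i, (κ i).val ≤ l i then if ∀ i, (τ i).val ≤ m i then
      (Perm.sign κ : ℤ) * Perm.sign τ * Nat.card (Tab (fun i => l i - κ i) fun i => m i - τ i) else 0 else 0) =
      if l = m then 1 else 0 := by
  have := congrArg (coeff (Finsupp.equivFunOnFinite.symm m)) (jt0 l)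
  rw [← det_transpose (of fun i (j : Fin n) => if j.val ≤ l i then _ else 0)] at this
  simp only [det_apply, of_apply, transpose_apply, prod_X_pow, sum_mul, mul_sum, smul_sum, coeff_sum, smul_mul_assoc, mul_smul_comm,
    coeff_smul, coeff_mul_monomial', coeff_monomial, Fintype.prod_ite_zero, mul_one, EmbeddingLike.apply_eq_iff_eq] at this
  rw [sum_eq_single 1 (fun σ _ h => by
    rw [if_neg fun e => h (Equiv.ext fun i => StrictMono.apply_eq (fun _ _ h => hl.lt_iff_lt.1 ((e ▸ hm :) h))), smul_zero])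
    (by simp)] at this
  rw [sum_comm]
  refine Eq.trans (sum_congr rfl fun τ _ => sum_congr rfl fun κ _ => ?_) (this.symm.trans (by rw [map_one, one_smul]; rfl))
  have e : Finsupp.equivFunOnFinite.symm (fun i => (τ i).val) ≤ Finsupp.equivFunOnFinite.symm m ↔ ∀ i, (τ i).val ≤ m i := .rfl
  simp only [e]
  split_ifs with h1 h2 <;> try simp only [smul_zero, coeff_zero]
  rw [← coeff_prod_hh, Units.smul_def, Units.smul_def, smul_eq_mul, smul_eq_mul, mul_left_comm, mul_assoc]
  congr 3; ext; simp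

variable {F : Type*} [Field F] {ν μ : Fin n → ℕ}

theorem sum_sub (h : ∑ i, ν i = n) {κ : Perm (Fin n)} (hκ : ∀ i, (κ i).val ≤ ν i + i) : ∑ i, (ν i + i - κ i) = n := by
  rw [sum_tsub_distrib _ fun i _ => hκ i, sum_add_distrib, h, Equiv.sum_comp κ fun i => i.val, Nat.add_sub_cancel]

theorem uni_eq (ν : Fin n → ℕ) : unipotentCharacterGL n F ν = ∑ κ : Perm (Fin n), (if ∀ i, (κ i).val ≤ ν i + i then
    (Perm.sign κ : ℤ) else 0) • fixedPointCharacter (parabolicGL n F fun i => ν i + i - κ i) := by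
  ext g; simp [unipotentCharacterGL, ite_apply]

theorem smono (h : Monotone ν) : StrictMono fun i : Fin n => ν i + i := h.add_strictMono Fin.val_strictMono

theorem inner_uni [Fintype (GL (Fin n) F)] (h1 : Monotone ν) (h2 : ∑ i, ν i = n) (h3 : Monotone μ) (h4 : ∑ i, μ i = n) :
    classInner (unipotentCharacterGL n F ν) (unipotentCharacterGL n F μ) = if ν = μ then 1 else 0 := by
  have := congrArg (Int.cast : ℤ → ℂ) (jt (smono h1) (smono h3))
  simp only [funext_iff, add_left_inj] at this
  rw [uni_eq, uni_eq, classInner_sum_left]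
  simp only [← funext_iff, Int.cast_ite, Int.cast_one, Int.cast_zero, Int.cast_sum] at this
  refine Eq.trans (sum_congr rfl fun κ _ => ?_) this
  rw [classInner_sum_right]
  refine sum_congr rfl fun τ _ => ?_
  rw [← Int.cast_smul_eq_zsmul ℂ, ← Int.cast_smul_eq_zsmul ℂ, classInner_smul_left, classInner_smul_right]
  split_ifs with h5 h6 <;> simp [inner_GL (sum_sub h2 _) (sum_sub h4 _), *, mul_assoc]

theorem qf_ne {q : ℕ} (r : ℕ) : (qf q r : ℂ) ≠ 0 := Nat.cast_ne_zero.2 (prod_ne_zero_iff.2 fun j _ => by simp [sum_range_succ'])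

theorem prod_Q (q : ℕ) (l : ℕ) : ∀ j, ∏ m ∈ range j, ((∑ t ∈ range l, q ^ t : ℕ) - (∑ t ∈ range m, q ^ t : ℕ) : ℂ) =
    (q : ℂ) ^ j.choose 2 * (qf q l * if j ≤ l then (qf q (l - j) : ℂ)⁻¹ else 0)
  | 0 => by simp [mul_inv_cancel₀ (qf_ne _)]
  | j + 1 => by
    rw [prod_range_succ, prod_Q q l j]
    rcases lt_trichotomy j l with h | rfl | h
    · obtain ⟨r, rfl⟩ := Nat.exists_eq_add_of_lt h
      have := qf_ne (q := q) (r + 1)
      rw [if_pos h.le, if_pos (Nat.succ_le_of_lt h), show j + r + 1 - j = r + 1 by omega, show j + r + 1 - (j + 1) = r by omega,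
        Nat.choose_succ_succ', Nat.choose_one_right, add_assoc, sum_range_add]
      rw [qf, prod_range_succ, ← qf, Nat.cast_mul] at this
      rw [qf.eq_1 q (r + 1), prod_range_succ, ← qf]
      simp only [pow_add, ← mul_sum, Nat.cast_add, Nat.cast_mul, Nat.cast_pow, add_sub_cancel_left]
      have h1 := left_ne_zero_of_mul this
      have h2 := right_ne_zero_of_mul this
      field_simp
    · simp
    · simp [h.not_ge, show ¬ j + 1 ≤ l by omega]

theorem sum_choose (n : ℕ) : ∑ j : Fin n, j.val.choose 2 = n * (n - 1) * (n - 2) / 6 := by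
  have : ∑ j ∈ range n, j.choose 2 = n.choose 3 := by
    induction n with
    | zero => rfl
    | succ n ih => rw [sum_range_succ, ih, Nat.choose_succ_succ' n 2, add_comm]
  rw [Fin.sum_univ_eq_sum_range (·.choose 2), this, Nat.choose_eq_descFactorial_div_factorial]
  simp [Nat.descFactorial, Nat.factorial, mul_comm, mul_left_comm]

theorem deg_uni [Fintype F] {q : ℕ} (hq : Fintype.card F = q) (h2 : ∑ i, ν i = n) :
    unipotentCharacterGL n F ν 1 * (q : ℂ) ^ (n * (n - 1) * (n - 2) / 6) * ∏ i : Fin n, (qf q (ν i + i) : ℂ) =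
      qf q n * ∏ i : Fin n, ∏ j ∈ Ioi i,
        (((∑ l ∈ range (ν j + j.val), q ^ l : ℕ) : ℂ) - ((∑ l ∈ range (ν i + i.val), q ^ l : ℕ) : ℂ)) := by
  have e : unipotentCharacterGL n F ν 1 =
      qf q n * (of fun i j : Fin n => if j.val ≤ ν i + i then (qf q (ν i + i - j) : ℂ)⁻¹ else 0).det := by
    rw [← det_transpose, det_apply, mul_sum, unipotentCharacterGL]
    refine sum_congr rfl fun κ _ => ?_
    simp only [transpose_apply, of_apply, Fintype.prod_ite_zero]
    split_ifs with h
    · have := congrArg (Nat.cast : ℕ → ℂ) (index_par (F := F) (sum_sub h2 h))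
      rw [hq, Nat.cast_mul, Nat.cast_prod] at this
      rw [← this, prod_inv_distrib, mul_smul_comm, mul_inv_cancel_right₀ (prod_ne_zero_iff.2 fun _ _ => qf_ne _)]
      simp [fixedPointCharacter, Units.smul_def]
    · simp
  rw [e, ← det_vandermonde, det_eval_matrixOfPolynomials_eq_det_vandermonde _
    (fun j => ∏ m ∈ range j, (Polynomial.X - Polynomial.C ((∑ t ∈ range m, q ^ t : ℕ) : ℂ)))
    (fun j => by rw [Polynomial.natDegree_finsetProd_X_sub_C_eq_card, card_range])
    fun j => Polynomial.monic_prod_X_sub_C _ _]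
  simp only [Polynomial.eval_prod, Polynomial.eval_sub, Polynomial.eval_X, Polynomial.eval_C, prod_Q]
  rw [← sum_choose, ← prod_pow_eq_pow_sum, mul_assoc, mul_assoc, mul_comm (det _), mul_assoc, ← det_mul_column, ← det_mul_row]
  rfl

theorem irr_uni [Fintype F] (h1 : Monotone ν) (h2 : ∑ i, ν i = n) : IsIrrCharacter _ (unipotentCharacterGL n F ν) := by
  classical
  refine IsGeneralizedCharacter.isIrrCharacter_of_pos (uni_eq (F := F) ν ▸ isGeneralizedCharacter_sum _ _ fun κ _ =>
    (isCharacter_card_fixedBy _).isGeneralizedCharacter.zsmul _) ((inner_uni h1 h2 h1 h2).trans (if_pos rfl)) ?_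
  have := deg_uni (F := F) rfl h2
  rw [prod_congr rfl fun i _ => prod_congr rfl fun j h => (Nat.cast_sub (sum_le_sum_of_subset (range_subset_range.2
    (smono h1 (mem_Ioi.1 h)).le))).symm] at this
  simp only [← Nat.cast_prod, ← Nat.cast_pow, mul_assoc, ← Nat.cast_mul] at this
  have := congrArg Complex.re this
  rw [Complex.mul_re, Complex.natCast_im, mul_zero, sub_zero, Complex.natCast_re, Complex.natCast_re] at this
  exact nonneg_of_mul_nonneg_left (this ▸ Nat.cast_nonneg _) (Nat.cast_pos.2 (Nat.pos_of_ne_zero (mul_ne_zero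
    (pow_ne_zero _ Fintype.card_ne_zero) (prod_ne_zero_iff.2 fun _ _ => Nat.cast_ne_zero.1 (qf_ne _)))))

end Cfsg.Agent.GLChar
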