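import Cfsg.Agent.GLChar.Min
import Cfsg.Agent.Classical.SLCard

/-! The smallest index of a proper subgroup of `SL_n(q)` (`sl_index`); `perm_degs`: index bounds from degree bounds. -/

set_option autoImplicit false

namespace Cfsg.Agent.GLChar

open Matrix Finset Cfsg.Agent.Char Cfsg.Agent.CharDeep GeneralLinearGroup
open scoped MatrixGroups

theorem perm_degs {G : Type*} [Group G] [Finite G] {H : Subgroup G} (hH : H ≠ ⊤) {N : ℕ} {P : ℕ → Prop}
    (h : ∀ χ, IsIrrCharacter G χ → χ ≠ (fun _ => 1) → ∀ d : ℕ, χ 1 = d → N ≤ d + 1 ∨ P d ∧ N ≤ 2 * d + 1) :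
    N ≤ H.index ∨ ∃ d, P d ∧ H.index = d + 1 := by
  have := Fintype.ofFinite G
  have := Fintype.ofFinite H
  have k : ∀ ψ : G → ℂ, IsCharacter G ψ → classInner ψ (fun _ => 1) = 0 → ∀ n : ℕ, ψ 1 = n → n ≠ 0 → ∃ (θ : G → ℂ) (d e : ℕ),
      IsCharacter G θ ∧ classInner θ (fun _ => 1) = 0 ∧ θ 1 = e ∧ n = d + e ∧ (N ≤ d + 1 ∨ P d ∧ N ≤ 2 * d + 1) :=
    fun ψ hψ h0 n hn n0 => by
      obtain ⟨χ, hχ, h1⟩ := hψ.isClassFunction.exists_irr_classInner_ne_zero fun e => n0 (by simpa [e, eq_comm] using hn)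
      obtain ⟨θ, hθ, rfl⟩ := hψ.exists_add_of_classInner_ne_zero hχ h1
      have ne : χ ≠ fun _ => 1 := fun e => h1 (e ▸ e ▸ h0)
      obtain ⟨d, hd⟩ := hχ.isCharacter.exists_nat_apply_one
      obtain ⟨e, he⟩ := hθ.exists_nat_apply_one
      rw [classInner_add_left, hχ.classInner_eq_zero_of_ne isIrrCharacter_one ne, zero_add] at h0
      exact ⟨θ, d, e, hθ, h0, he, by rw [Pi.add_apply, hd, he] at hn; exact_mod_cast hn.symm, h χ hχ ne d hd⟩
  have h1 : classInner (indFun H fun _ => 1) (fun _ => 1) = 1 := by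
    rw [classInner_indFun_left _ _ isIrrCharacter_one.isClassFunction]; exact isIrrCharacter_one.classInner_self
  obtain ⟨ψ, hψ, e⟩ := (isCharacter_indFun H isIrrCharacter_one.isCharacter).exists_add_of_classInner_ne_zero
    isIrrCharacter_one (h1.trans_ne one_ne_zero)
  obtain ⟨n, hn⟩ := hψ.exists_nat_apply_one
  have i : H.index = n + 1 := by
    have := congrFun e 1
    rw [indFun_one, Pi.add_apply, hn, mul_one, add_comm] at this
    exact_mod_cast this
  rw [e, classInner_add_left, isIrrCharacter_one.classInner_self, add_eq_left] at h1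
  obtain ⟨θ, d, e, hθ, h0, he, rfl, r⟩ := k ψ hψ h1 n hn fun r => hH (Subgroup.index_eq_one.1 (by omega))
  by_cases e0 : e = 0
  · exact r.imp (by omega) fun r => ⟨d, r.1, by omega⟩
  obtain ⟨-, d', e', -, -, -, rfl, r'⟩ := k θ hθ h0 e he e0
  omega

variable {F : Type*} [Field F] {κ : Type} [Fintype κ] [DecidableEq κ] {H : Subgroup (SpecialLinearGroup (Unit ⊕ κ) F)}

/-- elements of the stabiliser of the first basis vector -/
def pstab (a : κ → F) (g : SpecialLinearGroup κ F) : SpecialLinearGroup (Unit ⊕ κ) F :=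
  Deg.slMk (fromBlocks 1 (replicateRow Unit a) 0 g.1) (by simp [det_fromBlocks_zero₂₁])

theorem pstab_mul (a b : κ → F) (g h : SpecialLinearGroup κ F) : pstab a g * pstab b h = pstab (b + a ᵥ* h.1) (g * h) :=
  Subtype.ext (by simp [pstab, fromBlocks_multiply, replicateRow_add, replicateRow_vecMul])

theorem pstab_uu (a b : κ → F) (g : SpecialLinearGroup κ F) : pstab a g * uu κ F b = pstab (b + a) g := by
  exact (pstab_mul a b g 1).trans (by simp)

variable [Fintype F]

theorem of_index (hk : 2 ≤ Fintype.card κ) (hH : H ≠ ⊤) (hi : H.index = Fintype.card F ^ Fintype.card κ) :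
    (∀ t ∈ H, ¬ IsTransvection t.1) ∧ ∀ g, ∃! a, pstab a g ∈ H := by
  classical
  obtain ⟨ψ, hψ⟩ := Deg.exists_complex_psi F
  have := Fintype.one_lt_card_iff_nontrivial.1 hk
  have := Fintype.ofFinite (SpecialLinearGroup (Unit ⊕ κ) F)
  have hχ := isCharacter_indFun H isIrrCharacter_one.isCharacter
  obtain ⟨a, m, -, -, e, hc⟩ := split hψ hχ (uu κ F) fun w w' h h' => by
    obtain ⟨g, hg, e⟩ := Deg.exists_det_one_mulVec h h'
    exact ⟨_, _, fun a => ⟨lv_uu (mkOfDetNeZero g (hg.trans_ne one_ne_zero)) a, by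
      rw [← sg_dot (mkOfDetNeZero g (hg.trans_ne one_ne_zero)) a w]; simp [hg, e]⟩⟩
  have k := fun t h => (indFun_one_eq_card_fixedBy H t).symm.trans (apply_tv hk hχ.isClassFunction hc (t := t) h)
  rw [indFun_one, mul_one, Nat.cast_inj] at e
  have q : 2 ^ 2 ≤ Fintype.card F ^ Fintype.card κ :=
    (Nat.pow_le_pow_right two_pos hk).trans (Nat.pow_le_pow_left Fintype.one_lt_card _)
  have h1 : ∀ t ∈ H, ¬ IsTransvection t.1 := fun t ht h => by
    have p : 0 < Nat.card (MulAction.fixedBy (_ ⧸ H) t) := Nat.card_pos_iff.2 ⟨⟨⟨((1 : Matrix.SpecialLinearGroup (Unit ⊕ κ) F) : _ ⧸ H),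
      QuotientGroup.eq.2 (by simpa using ht)⟩⟩, inferInstance⟩
    have e2 : Nat.card (MulAction.fixedBy (_ ⧸ H) t) + m = a := by exact_mod_cast eq_sub_iff_add_eq.1 (k t h)
    obtain rfl : m = 0 := by
      rcases m with _ | m
      · rfl
      · rw [mul_add] at e; omega
    refine hH (Classical.eq_top_of_transvection_mem _ fun i j h c => ?_)
    by_cases h0 : c = 0
    · simp [h0]
    have := k (SpecialLinearGroup.transvection h c) (isTv (x := Pi.single i c) (y := Pi.single j 1) (by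
      ext; simp [SpecialLinearGroup.transvection_coe, vecMulVec_apply, Pi.single_apply, single_apply, ← ite_and, eq_comm,
        and_comm]) (by simpa) (by simp) (by simp [h]))
    rw [Nat.cast_zero, sub_zero, Nat.cast_inj, show a = Nat.card (_ ⧸ H) from (by simpa using e.symm : a = H.index), Nat.card_coe_set_eq,
      ← Set.eq_univ_iff_ncard] at this
    simpa using QuotientGroup.eq.1 (this.ge (Set.mem_univ ((1 : Matrix.SpecialLinearGroup (Unit ⊕ κ) F) : _ ⧸ H)))
  have h2 : ∀ a, uu κ F a ∈ H → a = 0 := fun a h => by_contra fun h0 => h1 _ h (isTv (uu_eq _) (by simp)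
    (fun h => h0 (funext fun i => congrFun h (.inr i))) (by simp))
  refine ⟨h1, fun g => existsUnique_of_exists_of_unique ?_ fun a b ha hb => sub_eq_zero.1 (h2 _ ?_)⟩
  · obtain ⟨a, ha⟩ := ((Nat.bijective_iff_injective_and_card fun a => (uu κ F a : _ ⧸ H)).2 ⟨fun a b h => by
      have := QuotientGroup.eq.1 h
      rw [← AddChar.map_neg_eq_inv, ← AddChar.map_add_eq_mul] at this
      exact neg_add_eq_zero.1 (h2 _ this), by rw [Nat.card_eq_fintype_card, Fintype.card_fun]; exact hi.symm⟩).2 ((pstab 0 g)⁻¹ : Matrix.SpecialLinearGroup (Unit ⊕ κ) F)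
    exact ⟨a, by simpa [pstab_uu] using QuotientGroup.eq.1 ha.symm⟩
  · rwa [← H.mul_mem_cancel_left hb, pstab_uu, sub_add_cancel]

theorem index_ne_three {H : Subgroup (SpecialLinearGroup (Unit ⊕ Fin 2) F)} (h2 : (2 : F) = 0) (hH : H ≠ ⊤) :
    H.index ≠ Fintype.card F ^ 2 := fun hi => by
  obtain ⟨h1, h⟩ := of_index (by simp) hH (by simpa)
  obtain ⟨g, hg⟩ : ∃ g : SL(2, F), g.1 = !![1, 1; 0, 1] := ⟨⟨_, by simp⟩, rfl⟩
  obtain ⟨a, ha, -⟩ := h g
  have := H.mul_mem ha ha
  rw [pstab_mul, show g * g = 1 from Subtype.ext (by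
    ext i j; fin_cases i <;> fin_cases j <;> simp [hg, h2, one_add_one_eq_two])] at this
  have e := congrFun ((h 1).unique this (y₂ := 0) (by convert H.one_mem; exact Subtype.ext (by simp [pstab]))) 1
  simp [hg, vecMul, dotProduct, vecHead, vecTail, ← add_assoc, add_right_comm (a 1), ← two_mul, h2] at e
  refine h1 _ ha (isTv (x := Sum.elim (fun _ => a 1) ![1, 0]) (y := Pi.single (.inr 1) 1) ?_
    (fun h => by simpa using congrFun h (.inr 0)) (by simp) (by simp))
  ext (i | i) (j | j) <;> fin_cases i <;> fin_cases j <;> simp [pstab, hg, vecMulVec_apply, e]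

theorem index_ne_four {H : Subgroup (SpecialLinearGroup (Unit ⊕ Fin 3) F)} (h2 : (2 : F) ≠ 0) (hH : H ≠ ⊤) :
    H.index ≠ Fintype.card F ^ 3 := fun hi => by
  obtain ⟨h1, h⟩ := of_index (by simp) hH (by simpa)
  obtain ⟨x, hx⟩ : ∃ g : SL(3, F), g.1 = !![1, 1, 0; 0, 1, 0; 0, 0, 1] := ⟨⟨_, by simp [det_fin_three]⟩, rfl⟩
  obtain ⟨y, hy⟩ : ∃ g : SL(3, F), g.1 = !![1, 0, 0; 0, 1, 1; 0, 0, 1] := ⟨⟨_, by simp [det_fin_three]⟩, rfl⟩
  obtain ⟨z, hz⟩ : ∃ g : SL(3, F), g.1 = !![1, 0, 1; 0, 1, 0; 0, 0, 1] := ⟨⟨_, by simp [det_fin_three]⟩, rfl⟩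
  obtain ⟨a, ha, -⟩ := h x
  obtain ⟨b, hb, -⟩ := h y
  obtain ⟨c, hc, -⟩ := h z
  have e1 := H.mul_mem ha hb
  have e2 := H.mul_mem (H.mul_mem hc hb) ha
  have e3 := H.mul_mem hc hb
  have e4 := H.mul_mem hb hc
  simp only [pstab_mul] at e1 e2 e3 e4
  have k1 := (h _).unique e1 (by convert e2 using 2; exact Subtype.ext (by simp [hx, hy, hz]))
  have k2 := congrFun ((h _).unique e3 (by convert e4 using 2; exact Subtype.ext (by simp [hy, hz]))) 2
  have k3 := congrFun k1 0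
  have k4 := congrFun k1 1
  simp [hx, hy, hz, vecMul, dotProduct, Fin.sum_univ_three, vecHead, vecTail] at k2 k3 k4
  have c0 : c 0 = 0 := by linear_combination -k3
  have c1 : c 1 = 0 := mul_left_cancel₀ h2 (by linear_combination k2 - k4 + k3)
  refine h1 _ hc (isTv (x := Sum.elim (fun _ => c 2) ![1, 0, 0]) (y := Pi.single (.inr 2) 1) ?_
    (fun h => by simpa using congrFun h (.inr 0)) (by simp) (by simp))
  ext (i | i) (j | j) <;> fin_cases i <;> fin_cases j <;> simp [pstab, hz, vecMulVec_apply, c0, c1]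

theorem sl_index (n : ℕ) (hn : ¬ (n + 3 = 4 ∧ Fintype.card F = 2)) {H : Subgroup (SpecialLinearGroup (Fin (n + 3)) F)}
    (hH : H ≠ ⊤) : ∑ i ∈ range (n + 3), Fintype.card F ^ i ≤ H.index := by
  classical
  have s : ∀ e : (Unit ⊕ Fin (n + 2) → F) ≃ₗ[F] Fin (n + 3) → F, Function.Surjective (Deg.slConj e) := fun e g =>
    ⟨Deg.slConj e.symm g, Subtype.ext (ext_iff_mulVec.2 fun v => by simp [Deg.slConj_mulVec])⟩
  have s := s (.ofFinrankEq _ _ (by simp; ring))
  have i := H.index_comap_of_surjective s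
  have p : H.comap _ ≠ ⊤ := fun r => hH (Subgroup.index_eq_one.1 (by rw [← i, r, Subgroup.index_top]))
  have d := H.index_dvd_card
  have c := Classical.card_SL_mul (F := F) (n + 3) (by omega)
  have ch : ∀ p : ℕ, p.Prime → p ∣ Fintype.card F → (p : F) = 0 := fun p hp h =>
    (ringChar.spec F p).2 (by have := Fact.mk hp; exact ((prime_dvd_char_iff_dvd_card p).2 h |> fun h => by
      rw [((CharP.char_is_prime F (ringChar F)).eq_one_or_self_of_dvd p h).resolve_left hp.ne_one]))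
  refine (perm_degs hH (P := Ex (n + 3) (Fintype.card F)) fun χ h h1 d hd => (min_deg n _ (Fintype.card_fin _) h h1 hd).imp_right
    fun r => ⟨r, ?_⟩).elim id fun ⟨d, r, e⟩ => ?_
  · rcases r with ⟨r, ⟨q, r'⟩ | ⟨q, r'⟩⟩ | ⟨r, ⟨q, r'⟩ | ⟨q, r'⟩⟩ <;> simp [r, q, sum_range_succ] at hn ⊢ <;> omega
  exfalso
  rw [Nat.card_eq_fintype_card (α := F)] at c
  rcases r with ⟨r, ⟨q, r'⟩ | ⟨q, r'⟩⟩ | ⟨r, ⟨q, r'⟩ | ⟨q, r'⟩⟩
  · obtain rfl : n = 0 := by omega
    have := index_ne_three (ch 2 Nat.prime_two (by simp [q])) p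
    generalize Nat.card (Matrix.SpecialLinearGroup (Fin (0 + 3)) F) = N at *
    simp [q, Fin.prod_univ_succ] at c
    rw [i, q, e] at this; rw [e] at ‹H.index ∣ _›; rcases r' with rfl | rfl <;> omega
  · obtain rfl : n = 0 := by omega
    have := index_ne_three (ch 2 Nat.prime_two (by simp [q])) p
    generalize Nat.card (Matrix.SpecialLinearGroup (Fin (0 + 3)) F) = N at *
    simp [q, Fin.prod_univ_succ] at c
    rw [i, q, e] at this; rw [e] at ‹H.index ∣ _›; rcases r' with rfl | rfl <;> omega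
  · exact hn ⟨r, q⟩
  · obtain rfl : n = 1 := by omega
    have h3 := ch 3 Nat.prime_three (by simp [q])
    have := index_ne_four (F := F) (fun h => one_ne_zero (α := F) (by push_cast at h3; linear_combination h3 - h)) p
    rw [i, q] at this; omega

end Cfsg.Agent.GLChar
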